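/- The principal block for an abelian Sylow subgroup whose automizer has order three. -/
import Cfsg.Agent.H36.FrobPrin
import Cfsg.Agent.H41.Invol
import Cfsg.Agent.H31.SylowIn

set_option autoImplicit false
set_option linter.unusedSectionVars false
open scoped ComplexConjugate
open Cfsg H28 H35
open H41 (bker prodCount)

namespace H36

theorem isSquare_of_rel {y₂ y₃ y₄ z₂ z₃ z₄ : ℤ} (h₂ : y₂ ≠ 0) (h₃ : y₃ ≠ 0) (h₄ : y₄ ≠ 0)
    (h0 : 1 + y₂ + y₃ + y₄ = 0) (h1 : 1 + z₂ + z₃ + z₄ = 0)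
    (h2 : (1 + z₂ ^ 2 / y₂ + z₃ ^ 2 / y₃ + z₄ ^ 2 / y₄ : ℂ) = 0) (hw : z₃ ≠ y₃) :
    IsSquare (y₂ * y₃ * y₄) := by
  have h3 : y₂ * y₃ * y₄ + z₂ ^ 2 * y₃ * y₄ + z₃ ^ 2 * y₂ * y₄ + z₄ ^ 2 * y₂ * y₃ = 0 := by
    have c₂ : (y₂ : ℂ) ≠ 0 := by exact_mod_cast h₂
    have c₃ : (y₃ : ℂ) ≠ 0 := by exact_mod_cast h₃
    have c₄ : (y₄ : ℂ) ≠ 0 := by exact_mod_cast h₄
    field_simp at h2
    have : ((y₂ * y₃ * y₄ + z₂ ^ 2 * y₃ * y₄ + z₃ ^ 2 * y₂ * y₄ + z₄ ^ 2 * y₂ * y₃ : ℤ) : ℂ) = 0 := by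
      push_cast; linear_combination h2
    exact_mod_cast this
  obtain rfl : y₄ = -1 - y₂ - y₃ := by omega
  obtain rfl : z₄ = -1 - z₂ - z₃ := by omega
  have h4 : y₂ * y₃ * (-1 - y₂ - y₃) * (z₃ - y₃) ^ 2 =
      (((-1 - y₃) * (z₂ - y₂) + y₂ * (z₃ - y₃)) * y₃) ^ 2 := by
    linear_combination (1 + y₃) * y₃ * h3
  have h5 : ((z₃ - y₃ : ℤ) : ℚ) ≠ 0 := by exact_mod_cast sub_ne_zero.2 hw
  refine Rat.isSquare_intCast_iff.1 ⟨((((-1 - y₃) * (z₂ - y₂) + y₂ * (z₃ - y₃)) * y₃ : ℤ) : ℚ) /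
    ((z₃ - y₃ : ℤ) : ℚ), ?_⟩
  rw [div_mul_div_comm, eq_div_iff (mul_ne_zero h5 h5), ← pow_two, ← pow_two]
  exact_mod_cast h4

theorem three_arith {d ε S : ℤ} {c : ℕ} (hε : ε = 1 ∨ ε = -1) (hd : d ≠ 0) (hc : 1 ≤ c)
    (hS : 0 ≤ S) (h : 1 + S + ((d - ε) ^ 2 + c * d ^ 2) = (3 : ℕ) + 1) : d = ε ∧ S + c = 3 := by
  have h3 : (1 : ℤ) ≤ c := by omega
  have h5 := mul_le_mul_of_nonneg_right h3 (sq_nonneg d)
  have h6 : (d - ε) ^ 2 + d ^ 2 ≤ 3 := by omega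
  have h7 : -2 < d := by nlinarith [sq_nonneg (d - ε)]
  have h8 : d < 2 := by nlinarith [sq_nonneg (d - ε)]
  rcases hε with rfl | rfl <;> interval_cases d <;> simp_all <;> omega

variable {G : Type*} [Group G] [Fintype G] {p : ℕ} {M : Ideal AlgInt} [M.IsMaximal]

section swap
variable {A : Subgroup G} [Fintype A] {B : Set (IrrCharacter G)} {E : Subgroup (MulAut A)}
  {ζ : (A →* ℂˣ) → IrrCharacter G} {ε : ℤ}

open Classical in
theorem Exc.swap (hx : Exc B A E ζ ε) {η₁ η₂ : IrrCharacter G}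
    (hY : ζ '' {ψ | ψ ≠ 1} = {η₁, η₂}) (hne : η₁ ≠ η₂)
    (hd : ∀ ψ ψ', ψ ≠ 1 → ψ' ≠ 1 →
      mult A (ζ ψ) 1 - mult A (ζ ψ) ψ' = ε - ε * if ζ ψ = ζ ψ' then 1 else 0) :
    ∃ ζ' ε', Exc B A E ζ' ε' ∧ ∀ ψ ψ', ψ ≠ 1 → ψ' ≠ 1 →
      mult A (ζ' ψ) 1 - mult A (ζ' ψ) ψ' = 0 - ε' * if ζ' ψ = ζ' ψ' then 1 else 0 := by
  have h1 : ∀ ψ, ψ ≠ 1 → ζ ψ = η₁ ∨ ζ ψ = η₂ := fun ψ hψ => hY.le ⟨ψ, hψ, rfl⟩
  have h2 : ∀ ψ, ψ ≠ 1 → ∃ ψ', ψ' ≠ 1 ∧ ζ ψ' = Equiv.swap η₁ η₂ (ζ ψ) := fun ψ hψ =>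
    hY.ge (by rcases h1 ψ hψ with h | h <;> simp [h])
  have h3 : ∀ ψ, ψ ≠ 1 → ∀ χ, (if χ = Equiv.swap η₁ η₂ (ζ ψ) then 1 else 0 : ℤ) =
      (if χ = η₁ then 1 else 0) + (if χ = η₂ then 1 else 0) - if χ = ζ ψ then 1 else 0 := by
    intro ψ hψ χ
    rcases h1 ψ hψ with h | h <;> simp [h]
  refine ⟨fun ψ => Equiv.swap η₁ η₂ (ζ ψ), -ε, ⟨by rcases hx.sign with h | h <;> simp [h],
    fun ψ hψ => ?_, fun ψ ψ' hψ hψ' => ?_, fun χ hχ ψ ψ' hψ hψ' => ?_⟩, fun ψ ψ' hψ hψ' => ?_⟩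
  · obtain ⟨ψ', h, e⟩ := h2 ψ hψ
    exact e ▸ hx.mem ψ' h
  · rw [(Equiv.injective _).eq_iff, hx.eq_iff _ _ hψ hψ']
  · rw [hx.sub χ hχ ψ ψ' hψ hψ', h3 ψ hψ, h3 ψ' hψ']
    ring
  · obtain ⟨ψ'', h, e⟩ := h2 ψ hψ
    beta_reduce
    rw [h3 ψ' hψ', ← e, hd ψ'' ψ' h hψ']
    rcases h1 ψ'' h with h | h <;> simp [h, hne, hne.symm] <;> split_ifs <;> simp

end swap

variable [Fact p.Prime] {P : Sylow p G}

namespace FreeAb

variable (h : FreeAb P) (hM : IsPModular p M)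
  (hE : Nat.card (P : Subgroup G).normalizerMonoidHom.range = 3)
include h hM hE

theorem mul_self_of_isConj_inv {y : G} (hy : y ∈ (P : Subgroup G)) (hc : IsConj y y⁻¹) :
    y * y = 1 := by
  by_contra h1
  obtain ⟨e, he, h2⟩ := (h.isConj_iff_range (a := ⟨y, hy⟩) (a' := ⟨y, hy⟩⁻¹)).1 hc
  have h3 : e * e = 1 := (h.frobCol hM).free _ (mul_mem he he) ⟨y, hy⟩
    (fun h => h1 (by rw [show y = 1 from congrArg Subtype.val h, one_mul]))
    (by rw [MulAut.mul_apply, h2, map_inv, h2, inv_inv])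
  have h4 : e ^ 3 = 1 := by
    have := pow_card_eq_one' (x := (⟨e, he⟩ : (P : Subgroup G).normalizerMonoidHom.range))
    rw [hE] at this
    exact congrArg Subtype.val this
  rw [pow_succ, pow_two, h3, one_mul] at h4
  subst h4
  exact h1 (eq_inv_iff_mul_eq_one.1 (congrArg Subtype.val h2))

theorem exists_hom_trivial (h4 : 4 < Nat.card P) {t : G} (ht : t * t = 1) :
    ∃ ψ : (P : Subgroup G) →* ℂˣ, ψ ≠ 1 ∧ ∀ v : (P : Subgroup G), IsConj t v → ψ v = 1 := by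
  classical
  have hc := h.frobCol hM
  by_cases h0 : ∀ v : (P : Subgroup G), IsConj t v → v = 1
  · obtain ⟨ψ, hψ⟩ := hc.exists_ne_one (by omega)
    exact ⟨ψ, hψ, fun v hv => by rw [h0 v hv, map_one]⟩
  push Not at h0
  obtain ⟨v, hv, hv1⟩ := h0
  have hsq : ∀ w : (P : Subgroup G), IsConj t w → w * w = 1 := fun w hw => by
    obtain ⟨c, hc⟩ := isConj_iff.1 hw
    apply Subtype.ext
    rw [Subgroup.coe_mul, ← hc, show c * t * c⁻¹ * (c * t * c⁻¹) = c * (t * t) * c⁻¹ by group, ht]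
    simp
  have h8 : 8 < Nat.card P := by
    obtain ⟨ζ, ε, hx⟩ := hc.exists_exc (by omega)
    have h5 := hc.card_exc_mul hx
    have h6 : 2 ∣ Nat.card P := by
      rw [← orderOf_eq_prime (p := 2) (by rw [pow_two, hsq v hv]) hv1]
      exact orderOf_dvd_natCard v
    obtain ⟨k, hk⟩ := P.isPGroup'.exists_card_eq
    have h7 : Nat.card P ≠ 6 := fun h7 => by
      have hp : p.Prime := Fact.out
      rw [hk] at h6 h7
      obtain rfl := (Nat.prime_dvd_prime_iff_eq Nat.prime_two hp).1 (Nat.prime_two.dvd_of_dvd_pow h6)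
      have := Nat.prime_three.dvd_of_dvd_pow (h7 ▸ by decide : 3 ∣ 2 ^ k)
      omega
    rw [hE] at h5
    change _ = Nat.card P at h5
    omega
  have : Finite ((P : Subgroup G) →* ℂˣ) :=
    Nat.finite_of_card_ne_zero (H83.card_hom hc.comm ▸ Nat.card_pos.ne')
  have : Finite (P : Subgroup G).normalizerMonoidHom.range := Nat.finite_of_card_ne_zero (by omega)
  obtain ⟨ψ₁, ψ₂, he, hne⟩ := Function.not_injective_iff.1 fun hi => h8.not_ge (by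
    have := Nat.card_le_card_of_injective (fun (ψ : (P : Subgroup G) →* ℂˣ)
      (e : (P : Subgroup G).normalizerMonoidHom.range) => decide (ψ (e.1 v) = 1)) hi
    rwa [H83.card_hom hc.comm, Nat.card_fun, hE, Nat.card_eq_fintype_card (α := Bool)] at this)
  refine ⟨ψ₁ / ψ₂, div_ne_one.2 hne, fun w hw => ?_⟩
  obtain ⟨e, h5, rfl⟩ := h.isConj_iff_range.1 (hv.symm.trans hw)
  have h6 := congrFun he ⟨e, h5⟩
  have h7 : ∀ ψ : (P : Subgroup G) →* ℂˣ, ψ (e v) = 1 ∨ ψ (e v) = -1 := fun ψ =>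
    (mul_self_eq_one_iff.1 (show (ψ (e v) : ℂ) * ψ (e v) = 1 by
      rw [← Units.val_mul, ← map_mul, hsq _ hw, map_one, Units.val_one])).imp Units.ext Units.ext
  rw [MonoidHom.div_apply, div_eq_one]
  simp only [decide_eq_decide] at h6
  by_cases h8 : ψ₁ (e v) = 1
  · rw [h8, h6.1 h8]
  · rw [(h7 ψ₁).resolve_left h8, (h7 ψ₂).resolve_left (mt h6.2 h8)]

theorem prodCount_eq_zero {t : G} (ht : t * t = 1) {ψ : (P : Subgroup G) →* ℂˣ}
    (hψ : ∀ v : (P : Subgroup G), IsConj t v → ψ v = 1) {y : (P : Subgroup G)} (hy : ψ y ≠ 1)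
    {u z : G} (hz : IsPPart p u z) (hyz : IsConj (y : G) z) : prodCount t t u = 0 := by
  have hy1 : (y : G) ≠ 1 := fun e => hy (by rw [show y = 1 from Subtype.ext e, map_one])
  obtain ⟨c, rfl⟩ := isConj_iff.1 hyz
  have h1 := H41.isPPart_conj hz c⁻¹
  rw [← H41.prodCount_isClassFunction t t u c⁻¹]
  rw [show c⁻¹ * (c * y * c⁻¹) * c⁻¹⁻¹ = y by group] at h1
  generalize c⁻¹ * u * c⁻¹⁻¹ = u at h1
  have : IsEmpty {x : G × G // x.1 * t * x.1⁻¹ * (x.2 * t * x.2⁻¹) = u} := by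
    refine ⟨fun ⟨⟨a, b⟩, hab⟩ => ?_⟩
    subst hab
    have hsq : ∀ a : G, a * t * a⁻¹ * (a * t * a⁻¹) = 1 := fun a => by
      rw [show a * t * a⁻¹ * (a * t * a⁻¹) = a * (t * t) * a⁻¹ by group, ht]; group
    have h2 := H41.inverts_of_isPPart hM.1 (hsq a) (hsq b) h1
    rw [← eq_inv_iff_mul_eq_one.2 (h.mul_self_of_isConj_inv hM hE y.2 (isConj_iff.2 ⟨_, h2⟩))] at h2
    obtain ⟨π, hπ, hπ1, hπ0⟩ := exists_retraction (h.hasNPC y.2 hy1) P (h.le_centralizer y.2)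
    have h3 : ∀ s : Subgroup.centralizer ({(y : G)} : Set G), IsConj t s →
        ψ ⟨π s, hπ s⟩ = 1 := fun s hs => by
      by_cases h4 : p ∣ orderOf s
      · have h5 : s ^ 2 = 1 := by
          obtain ⟨c, hc⟩ := isConj_iff.1 hs
          exact Subtype.ext (by rw [pow_two, Subgroup.coe_mul, ← hc, hsq]; rfl)
        obtain rfl := (Nat.prime_dvd_prime_iff_eq hM.1 Nat.prime_two).1
          (h4.trans (orderOf_dvd_of_pow_eq_one h5))
        obtain ⟨c, hc⟩ := H31.exists_conj_mem_sylow (P.subtype (h.le_centralizer y.2)) (u := s)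
          (k := 1) h5
        refine hψ _ (hs.trans (isConj_iff.2 ⟨c, ?_⟩))
        have h6 := hπ1 (c * s * c⁻¹) hc
        have := h.comm
        rw [map_mul, map_mul, setLike_mul_comm (hπ c) (hπ s), mul_assoc, ← map_mul,
          mul_inv_cancel, map_one, mul_one] at h6
        exact h6.symm
      · rw [show (⟨π s, hπ s⟩ : (P : Subgroup G)) = 1 from Subtype.ext ((hπ0 s).2 h4), map_one]
    obtain ⟨k, hk, hc, -, hp⟩ := h1
    have ha : a * t * a⁻¹ ∈ Subgroup.centralizer ({(y : G)} : Set G) :=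
      mem_centralizer_singleton_conj.2 h2
    have hk' : k ∈ Subgroup.centralizer ({(y : G)} : Set G) :=
      Subgroup.mem_centralizer_singleton_iff.2 hc.symm
    have hy' := h.le_centralizer y.2 y.2
    have hb : b * t * b⁻¹ ∈ Subgroup.centralizer ({(y : G)} : Set G) :=
      (mul_mem_cancel_left ha).1 (hk ▸ mul_mem hy' hk')
    have h4 := congrArg π (show (⟨y, hy'⟩ * ⟨k, hk'⟩ : Subgroup.centralizer ({(y : G)} : Set G)) =
      ⟨_, ha⟩ * ⟨_, hb⟩ from Subtype.ext hk)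
    rw [map_mul, map_mul, hπ1 _ y.2, (hπ0 ⟨k, hk'⟩).2 (by simpa using hp), mul_one] at h4
    apply hy
    rw [show y = ⟨_, hπ ⟨_, ha⟩⟩ * ⟨_, hπ ⟨_, hb⟩⟩ from Subtype.ext h4, map_mul,
      h3 _ (isConj_iff.2 ⟨a, rfl⟩), h3 _ (isConj_iff.2 ⟨b, rfl⟩), mul_one]
  rw [prodCount, Nat.card_of_isEmpty, Nat.cast_zero]

theorem sum_col_invol {t : G} (ht : t * t = 1) {ψ : (P : Subgroup G) →* ℂˣ}
    [Fintype (P : Subgroup G)] (hψ : ∀ v : (P : Subgroup G), IsConj t v → ψ v = 1) :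
    ∑ χ ∈ bF (principalBlock M G), ((mult (P : Subgroup G) χ 1 - mult (P : Subgroup G) χ ψ : ℤ) : ℂ)
        * (χ : G → ℂ) t = 0 ∧
    ∑ χ ∈ bF (principalBlock M G), ((mult (P : Subgroup G) χ 1 - mult (P : Subgroup G) χ ψ : ℤ) : ℂ)
        * ((χ : G → ℂ) t ^ 2 / (χ : G → ℂ) 1) = 0 := by
  have hB := H34.blockCoeff_mem_S (H34.isPBlock_principalBlock (M := M) (G := G))
  have hr := fun χ : IrrCharacter G => H41.char_conj_of_mul_self χ.2.isCharacter ht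
  have hpp := fun y : (P : Subgroup G) =>
    H41.isPPart_self hM.1 (H41.exists_orderOf_eq_of_mem P.isPGroup' y.2)
  refine ⟨?_, ?_⟩
  · by_cases hp : p ∣ orderOf t
    swap
    · exact sum_mult_sub_mul_reg hM P.isPGroup' H34.isPBlock_principalBlock 1 ψ hp
    simp only [mul_comm _ ((_ : G → ℂ) t)]
    refine sum_mul_mult_sub_eq_zero _ _ _ _ fun y hy => ?_
    have h2 : t ^ 2 = 1 := by rw [pow_two, ht]
    obtain rfl := (Nat.prime_dvd_prime_iff_eq hM.1 Nat.prime_two).1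
      (hp.trans (orderOf_dvd_of_pow_eq_one h2))
    have h1 := H41.bker_eq_zero_of_coeff_mem hM hB (hpp y) (H41.isPPart_self hM.1
      ⟨1, Nat.dvd_antisymm (orderOf_dvd_of_pow_eq_one h2) hp⟩) fun hc => hy (hψ y hc.symm).symm
    rw [bker, finsum_mem_eq_bF] at h1
    simpa only [hr, mul_comm] using h1
  · simp only [mul_comm _ (_ / (_ : G → ℂ) 1)]
    refine sum_mul_mult_sub_eq_zero _ _ _ _ fun y hy => ?_
    have h1 := H41.blockPart_eq_zero_of_coeff_mem hM hB (ϑ := prodCount t t) (x := y)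
      (fun u z => h.prodCount_eq_zero hM hE ht hψ (Ne.symm hy)) (hpp y) (IsConj.refl _)
    rw [H41.blockPart_prodCount, mul_eq_zero, or_iff_right (card_ne_zero' G),
      finsum_mem_eq_bF] at h1
    simpa only [map_mul, hr, pow_two] using h1

open Classical in
theorem exists_exc_zero [Fintype (P : Subgroup G)] (h4 : 4 < Nat.card P) :
    ∃ ζ ε, Exc (principalBlock M G) (P : Subgroup G) (P : Subgroup G).normalizerMonoidHom.range ζ ε
      ∧ ∀ ψ ψ', ψ ≠ 1 → ψ' ≠ 1 → mult (P : Subgroup G) (ζ ψ) 1 - mult (P : Subgroup G) (ζ ψ) ψ' =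
        0 - ε * if ζ ψ = ζ ψ' then 1 else 0 := by
  have hc := h.frobCol hM
  have hlt : Nat.card (P : Subgroup G).normalizerMonoidHom.range + 1 < Nat.card P := by omega
  obtain ⟨ζ, ε, hx⟩ := hc.exists_exc hlt
  obtain ⟨ψ₀, h0⟩ := hc.exists_ne_one (by omega)
  obtain ⟨d, hd⟩ := hc.exists_d hx h0
  by_cases hd0 : d = 0
  · exact ⟨ζ, ε, hx, hd0 ▸ hd⟩
  have hr := hc.card_exc_mul hx
  have hn := (hc.sum_col hx hd h0 fun c _ => c ^ 2).symm.trans (hc.norm_col h0)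
  have hg := (hc.sum_col hx hd h0 fun c χ => (c : ℂ) * (χ : G → ℂ) 1).symm.trans
    (sum_mult_sub_mul_reg hM hc.pg hc.blk 1 ψ₀ (by simpa using hM.1.ne_one))
  rw [hE] at hr
  change _ = Nat.card P at hr
  set Y := ζ '' {ψ | ψ ≠ 1} with hY
  have hcY : ((bF Y).erase (ζ ψ₀)).card + 1 = Nat.card Y := by
    rw [Finset.card_erase_add_one (mem_bF.2 (show ζ ψ₀ ∈ Y from ⟨ψ₀, h0, rfl⟩)), card_bF]
  have h1 : (⟨_, isIrrCharacter_one⟩ : IrrCharacter G) ∈ bF (principalBlock M G \ Y) :=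
    mem_bF.2 ⟨H34.one_mem_principalBlock, fun ⟨ψ, hψ, e⟩ =>
      one_not_mem_exc hc hlt hx hψ (congrArg Subtype.val e)⟩
  rw [← Finset.add_sum_erase _ _ h1, mult_of_eq_one rfl, mult_of_eq_one rfl, if_pos rfl,
    if_neg h0] at hn hg
  rw [hE, Finset.sum_const, nsmul_eq_mul, sub_zero, one_pow] at hn
  have h2 := Finset.sum_nonneg (s := (bF (principalBlock M G \ Y)).erase ⟨_, isIrrCharacter_one⟩)
    fun χ _ => sq_nonneg (mult (P : Subgroup G) χ 1 - mult (P : Subgroup G) χ ψ₀)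
  obtain ⟨rfl, h3⟩ := three_arith hx.sign hd0 (by omega) h2 hn
  by_cases h6 : Nat.card Y = 2
  · obtain ⟨η₁, η₂, hne, h7⟩ := Set.ncard_eq_two.1 ((Nat.card_coe_set_eq Y).symm.trans h6)
    exact hx.swap h7 hne hd
  exfalso
  by_cases h7 : Nat.card Y = 3
  · obtain ⟨k, hk⟩ := P.isPGroup'.exists_card_eq
    have h8 : p ^ k = 10 := hk.symm.trans (show Nat.card P = 10 by omega)
    obtain rfl := (Nat.prime_dvd_prime_iff_eq Nat.prime_two hM.1).1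
      (Nat.prime_two.dvd_of_dvd_pow (h8 ▸ by decide : 2 ∣ p ^ k))
    have := Nat.prime_five.dvd_of_dvd_pow (h8 ▸ by decide : 5 ∣ 2 ^ k)
    omega
  have h8 := (Finset.sum_eq_zero_iff_of_nonneg fun χ _ => sq_nonneg _).1
    (h2.antisymm' (by omega))
  rw [Finset.sum_eq_zero fun χ hχ => by
      rw [pow_eq_zero_iff two_ne_zero |>.1 (h8 χ hχ), Int.cast_zero, zero_mul],
    Finset.sum_congr rfl (s₁ := Finset.erase _ _) (g := fun _ => d * (ζ ψ₀ : G → ℂ) 1) fun χ hχ => by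
      obtain ⟨ψ, hψ, rfl⟩ := mem_bF.1 (Finset.mem_of_mem_erase hχ)
      rw [hc.exc_reg hx hψ h0 (by simpa using hM.1.ne_one)], Finset.sum_const, nsmul_eq_mul,
    show ((bF Y).erase (ζ ψ₀)).card = 3 by omega, ← coe_deg (ζ ψ₀)] at hg
  have h9 : 1 + 3 * (d * charDegree (ζ ψ₀ : G → ℂ)) = 0 := by
    simp only [sub_zero, sub_self, Int.cast_one, mul_one, add_zero, Int.cast_zero, zero_mul,
      zero_add] at hg
    exact_mod_cast hg
  omega

end FreeAb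

end H36
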