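import Cfsg.Agent.H32.Clifford

/-! Slots for the class-number bound in a block with normal defect group. -/

set_option autoImplicit false

namespace H36.K63
open Cfsg

universe u

/-- The number of commuting pairs in `S`; it is `|S| * k(S)`. -/
noncomputable def comm {E : Type*} [Group E] (S : Subgroup E) : ℕ :=
  Nat.card {x : E × E // x.1 ∈ S ∧ x.2 ∈ S ∧ x.1 * x.2 = x.2 * x.1}

/-- The stabilizer of a function on `V` in a group acting on `V`. -/
def stabF {E V : Type*} [Group E] [Group V] (φ : E →* MulAut V) (ζ : V → ℂ) : Subgroup E where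
  carrier := {e | ∀ v, ζ (φ e v) = ζ v}
  one_mem' := fun v => by simp
  mul_mem' := fun {a b} ha hb v => by
    rw [map_mul, MulAut.mul_apply, ha, hb]
  inv_mem' := fun {a} ha v => by
    have := ha (φ a⁻¹ v)
    rw [← MulAut.mul_apply, ← map_mul, mul_inv_cancel, map_one, MulAut.one_apply] at this
    exact this.symm

theorem mem_stabF {E V : Type*} [Group E] [Group V] {φ : E →* MulAut V} {ζ : V → ℂ} {e : E} :
    e ∈ stabF φ ζ ↔ ∀ v, ζ (φ e v) = ζ v := Iff.rfl

theorem comm_mono {E : Type*} [Group E] [Finite E] {S S' : Subgroup E} (h : S ≤ S') :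
    comm S ≤ comm S' :=
  Nat.card_le_card_of_injective (fun x => ⟨x.1, h x.2.1, h x.2.2.1, x.2.2.2⟩)
    fun _ _ hxy => Subtype.ext (Subtype.mk.inj hxy)

theorem comm_eq {E : Type*} [Group E] [Finite E] (S : Subgroup E) :
    comm S = Nat.card S * Nat.card (ConjClasses S) := by
  rw [mul_comm, ← card_comm_eq_card_conjClasses_mul_card]
  refine Nat.card_congr ⟨fun x => ⟨(⟨x.1.1, x.2.1⟩, ⟨x.1.2, x.2.2.1⟩), Subtype.ext x.2.2.2⟩,
    fun y => ⟨(y.1.1, y.1.2), y.1.1.2, y.1.2.2, congrArg Subtype.val y.2⟩, fun _ => rfl, fun _ => rfl⟩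

/-- The weak half of S4961. -/
def St61 : Prop := ∀ {X : Type u} [Group X] [Finite X] (p : ℕ) [Fact p.Prime], IsPSolvable p X →
  pPrimeCore p X = ⊥ → ∀ P : Sylow p X, Nat.card (ConjClasses X) ≤ Nat.card P

/-- Upper count of characters over a `T`-stable set of characters of `N`. -/
def JobU : Prop := ∀ {G E : Type u} [Group G] [Finite G] [Group E] [Finite E] (N T : Subgroup G)
  [N.Normal] [Fintype N] (π : T →* E), N ≤ T → Function.Surjective π →
  (∀ t : T, π t = 1 ↔ (t : G) ∈ N) → ∀ b : Finset (IrrCharacter N),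
  (∀ θ ∈ b, H32.inertia θ.1 ≤ T) → (∀ θ ∈ b, ∀ t ∈ T, ∃ θ' ∈ b, θ'.1 = H32.cj t θ.1) →
  ∀ 𝒳 : Set (IrrCharacter G), (∀ χ ∈ 𝒳, ∃ θ ∈ b, classInner (fun n : N => χ.1 n) θ.1 ≠ 0) →
  Nat.card E * Nat.card 𝒳 ≤ ∑ θ ∈ b, comm (((H32.inertia θ.1).subgroupOf T).map π)

/-- Lower count over a normal Hall subgroup. -/
def JobL : Prop := ∀ {X E : Type u} [Group X] [Finite X] [Group E] [Finite E] (K : Subgroup X)
  [K.Normal] (π : X →* E), Function.Surjective π → π.ker = K → (Nat.card K).Coprime K.index →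
  ∀ b : Finset (IrrCharacter K),
  ∑ ζ ∈ b, comm ((H32.inertia ζ.1).map π) ≤ Nat.card E * Nat.card (ConjClasses X)

def StV : Prop := ∀ {V E : Type u} [Group V] [Finite V] [Group E] [Finite E] (p : ℕ) [Fact p.Prime],
  IsPGroup p V → ¬ p ∣ Nat.card E → ∀ φ : E →* MulAut V, Function.Injective φ →
  ∀ b : Finset (IrrCharacter V), ∑ ζ ∈ b, comm (stabF φ ζ.1) ≤ Nat.card E * Nat.card V

def StV' : Prop := ∀ {V E : Type u} [Group V] [Finite V] [Group E] [Finite E] (p : ℕ) [Fact p.Prime],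
  IsPGroup p V → ¬ p ∣ Nat.card E → ∀ φ : E →* MulAut V, Function.Injective φ →
  ∀ b : Finset (IrrCharacter V), (∀ ζ ∈ b, ζ.1 1 = 1) →
  ∑ ζ ∈ b, comm (stabF φ ζ.1) ≤ Nat.card E * (commutator V).index

def JobSD : Prop := JobL.{u} → St61.{u} → StV.{u}

def JobAb : Prop := StV.{u} → StV'.{u}

/-- Schur-Zassenhaus in the group of automorphisms of `P` induced by `T`. -/
def JobPi : Prop := ∀ {G : Type u} [Group G] [Finite G] (p : ℕ) [Fact p.Prime] (P T : Subgroup G)
  [P.Normal], IsPGroup p P → P ⊔ Subgroup.centralizer (P : Set G) ≤ T →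
  ¬ p ∣ (P ⊔ Subgroup.centralizer (P : Set G)).relIndex T →
  ∃ (E : Type u) (_ : Group E) (_ : Finite E) (π : T →* E) (φ : E →* MulAut P),
    Function.Surjective π ∧ (∀ t : T, π t = 1 ↔ (t : G) ∈ P ⊔ Subgroup.centralizer (P : Set G)) ∧
    Function.Injective φ ∧ ¬ p ∣ Nat.card E ∧
    ∀ t : T, ∃ u : P, ∀ v : P, ((φ (π t) v : P) : G) = u * ((t : G) * v * (t : G)⁻¹) * (u : G)⁻¹

end H36.K63
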