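import Cfsg.Agent.H36.K63Top
import Cfsg.Agent.H29.K63U
import Cfsg.Agent.H9.K63L
import Cfsg.Agent.H51.K63SD
import Cfsg.Agent.H84.K63Ab
import Cfsg.Agent.H43.K63Pi
import Cfsg.Agent.H96.KgvRow

/-! The bound for blocks with normal defect group, from the coprime class-number bound. -/

set_option autoImplicit false

namespace H36.K63
open Cfsg

universe u

theorem of_kgv (hk : ∀ p : ℕ, p.Prime → H96.KgvRow.KGV.{u} p)
    {G : Type u} [Group G] [Finite G] (p : ℕ) [Fact p.Prime] (M : Ideal AlgInt)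
    (hM : IsPModular p M) (B : Set (IrrCharacter G)) (hB : IsPBlock M B) (P : Subgroup G)
    [P.Normal] (hP : IsDefectGroup p M B P) :
    Nat.card B ≤ Nat.card P ∧
      Nat.card {χ : IrrCharacter G // χ ∈ B ∧ blockHeight p B (χ : G → ℂ) = 0} ≤
        (commutator P).index :=
  have hV : StV.{u} := H51.K63SD.job H9.K63L.job fun q hq h1 h2 S =>
    (H96.KgvRow.of_kgv q (hk q hq.out) h1 h2 S).1
  top H29.K63U.job hV (H84.K63Ab.job hV) H43.K63Pi.job p M hM B hB P hP

end H36.K63
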