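import Cfsg.Agent.H36.K63Spec
import Cfsg.Agent.H38.Reyn

/-! The class-number bound in a block with normal defect group, from the slots. -/

set_option autoImplicit false

namespace H36.K63
open Cfsg H28 H35 H39 H38
open H36 hiding pull coeff_pull

universe u

theorem top (hU : JobU.{u}) (hV : StV.{u}) (hV' : StV'.{u}) (hPi : JobPi.{u})
    {G : Type u} [Group G] [Finite G] (p : ℕ) [Fact p.Prime] (M : Ideal AlgInt)
    (hM : IsPModular p M) (B : Set (IrrCharacter G)) (hB : IsPBlock M B) (P : Subgroup G)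
    [P.Normal] (hP : IsDefectGroup p M B P) :
    Nat.card B ≤ Nat.card P ∧
      Nat.card {χ : IrrCharacter G // χ ∈ B ∧ blockHeight p B (χ : G → ℂ) = 0} ≤
        (commutator P).index := by
  classical
  have := hM.2.1
  have := charP_F hM
  cases nonempty_fintype G
  set N := P ⊔ Cen P with hN
  have : N.Normal := Subgroup.sup_normal _ _
  cases nonempty_fintype N
  obtain ⟨b, hb, hc⟩ := (NEmb.ofNormal N).exists_covered (M := M) (H34.block_nonempty hB)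
  have hP1 := (isDefectGroup_iff hM hB).1 hP
  obtain ⟨Q, hQ⟩ := (H38.blk_eS hb).exists_isDef p le_rfl
  obtain ⟨P', hP', hPQ⟩ := knorr le_top (nor_of_normal N ⊤) (H38.blk_eB hB) (H38.blk_eS hb)
    ((covers_iff_eS hB hb).1 hc) hQ
  obtain ⟨k, -, rfl⟩ := hP1.exists_conj hP'
  rw [H37.map_conj_eq_iff_mem_normalizer.2 (nor_of_normal P ⊤ trivial),
    inf_eq_left.2 le_sup_left] at hPQ
  subst hPQ
  have hD := (isDefectGroup_subgroupOf_iff hM hb le_sup_left).2 hQ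
  have : (P.subgroupOf N).Normal := inferInstance
  obtain ⟨χ₀, hχ₀, hk⟩ := H34.exists_mem_le_charKer hM (P.subgroupOf N)
    (hQ.isPGroup.of_equiv (Subgroup.subgroupOfEquivOfLe le_sup_left).symm) hb
  let e := Subgroup.subgroupOfEquivOfLe (le_sup_left : P ≤ N)
  have hsec : ∀ θ ∈ b, ∃ ζ : IrrCharacter P,
      H41.SecForm p (P.subgroupOf N) θ.1 (trI e ζ).1 χ₀.1 := fun θ hθ => by
    obtain ⟨ζ, hζ⟩ := H41.exists_secForm hM (subgroupOf_sup_cen P) hb hD hχ₀ hk hθ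
    refine ⟨trI e.symm ζ, ?_⟩
    have : trI e (trI e.symm ζ) = ζ := (trI e).apply_symm_apply ζ
    rwa [this]
  have : Nonempty (IrrCharacter P) := ⟨(hsec χ₀ hχ₀).choose⟩
  choose! Z hZ using hsec
  have h01 : χ₀.1 1 ≠ 0 := by
    rw [← coe_deg]; exact Nat.cast_ne_zero.2 (deg_ne_zero χ₀)
  have hval : ∀ θ ∈ b, ∀ y : P, θ.1 ⟨y, le_sup_left (a := P) y.2⟩ = (Z θ).1 y * χ₀.1 1 :=
    fun θ hθ y => (hZ θ hθ).apply hM.1 ⟨⟨y, le_sup_left (a := P) y.2⟩, y.2⟩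
  set T := stab (eS M N b) with hT
  have hNT : N ≤ T := fr_le_stab hb rfl
  have hidx : ¬ p ∣ N.relIndex T :=
    not_dvd_relIndex_stab hM (H38.blk_eB hB) (H38.blk_eS hb) ((covers_iff_eS hB hb).1 hc) hP1 hQ le_sup_right
  obtain ⟨E, _, _, π, φ, hπ, hker, hφ, hE, hu⟩ := hPi p P T hP1.isPGroup hNT hidx
  have hstab : ∀ θ ∈ b, ∀ t ∈ T, (NEmb.ofNormal N).cjI t θ ∈ b := fun θ hθ t ht => by
    rw [← (cjI_image_eq_iff hb).2 ht]; exact ⟨θ, hθ, rfl⟩
  have hle : ∀ θ ∈ b, ((H32.inertia θ.1).subgroupOf T).map π ≤ stabF φ (Z θ).1 := by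
    rintro θ hθ _ ⟨t, ht, rfl⟩ v
    obtain ⟨w, hw⟩ := hu t
    have h1 : φ (π t) v = w * ⟨t * v * (t : G)⁻¹, ‹P.Normal›.conj_mem _ v.2 _⟩ * w⁻¹ :=
      Subtype.ext (hw v)
    rw [h1, (Z θ).2.isCharacter.isClassFunction]
    refine mul_right_cancel₀ h01 ?_
    rw [← hval θ hθ, ← hval θ hθ]
    exact H32.mem_inertia_iff.1 ht ⟨v, le_sup_left (a := P) v.2⟩
  have core : ∀ (c : Finset (IrrCharacter N)) (𝒳 : Set (IrrCharacter G)), (∀ θ ∈ c, θ ∈ b) →
      (∀ θ ∈ c, ∀ t ∈ T, (NEmb.ofNormal N).cjI t θ ∈ c) →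
      (∀ χ ∈ 𝒳, ∃ θ ∈ c, classInner (fun n : N => χ.1 n) θ.1 ≠ 0) →
      Nat.card E * Nat.card 𝒳 ≤ ∑ ζ ∈ c.image Z, comm (stabF φ ζ.1) := by
    intro c 𝒳 h1 h2 h3
    refine (hU N T π hNT hπ hker c (fun θ hθ => inertia_le_stab hb (h1 θ hθ))
      (fun θ hθ t ht => ⟨_, h2 θ hθ t ht, rfl⟩) 𝒳 h3).trans ?_
    rw [Finset.sum_image fun θ hθ θ' hθ' h => Subtype.ext
      ((hZ θ (h1 θ hθ)).eq hM.1 (by rw [h]; exact hZ θ' (h1 θ' hθ')))]
    exact Finset.sum_le_sum fun θ hθ => comm_mono (hle θ (h1 θ hθ))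
  have hEpos : 0 < Nat.card E := Nat.card_pos
  have hfin : b.Finite := Set.toFinite b
  constructor
  · refine Nat.le_of_mul_le_mul_left ((core hfin.toFinset B (fun θ hθ => hfin.mem_toFinset.1 hθ)
      (fun θ hθ t ht => hfin.mem_toFinset.2 (hstab θ (hfin.mem_toFinset.1 hθ) t ht))
      fun χ hχ => ?_).trans (hV p hP1.isPGroup hE φ hφ _)) hEpos
    obtain ⟨θ, hθ, h⟩ := Covers.exists_under (E := NEmb.ofNormal N) hB (bcl_of_isPBlock hb) hc hχ
    exact ⟨θ, hfin.mem_toFinset.2 hθ, h⟩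
  · refine Nat.le_of_mul_le_mul_left ((core (hfin.toFinset.filter fun θ => θ.1 1 = χ₀.1 1)
      {χ | χ ∈ B ∧ blockHeight p B (χ : G → ℂ) = 0}
      (fun θ hθ => hfin.mem_toFinset.1 (Finset.mem_filter.1 hθ).1)
      (fun θ hθ t ht => Finset.mem_filter.2 ⟨hfin.mem_toFinset.2
        (hstab θ (hfin.mem_toFinset.1 (Finset.mem_filter.1 hθ).1) t ht), by
          rw [NEmb.cjI_apply_one]; exact (Finset.mem_filter.1 hθ).2⟩)
      fun χ hχ => ?_).trans (hV' p hP1.isPGroup hE φ hφ _ fun ζ hζ => ?_)) hEpos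
    · obtain ⟨θ, hθ, h⟩ :=
        Covers.exists_under (E := NEmb.ofNormal N) hB (bcl_of_isPBlock hb) hc hχ.1
      refine ⟨θ, Finset.mem_filter.2 ⟨hfin.mem_toFinset.2 hθ, ?_⟩, h⟩
      have h1 := hχ.2
      rw [height_eq_of_covers hM hB hb hP hQ le_sup_right hχ.1 hθ h,
        height_eq_of_secForm hM (subgroupOf_sup_cen P) hb hD hχ₀ hk hθ (hZ θ hθ),
        charDegree_trI] at h1
      have h2 : charDegree (Z θ).1 = 1 := by
        obtain ⟨j, hj⟩ := IsPGroup.iff_card.1 hP1.isPGroup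
        have h4 : ¬ p ∣ charDegree (Z θ).1 := fun hd => by
          have := (hM.1.dvd_iff_one_le_factorization (deg_ne_zero (Z θ))).1 hd
          omega
        exact Nat.eq_one_of_dvd_coprimes (((Nat.Prime.coprime_iff_not_dvd hM.1).2 h4).pow_left j)
          (hj ▸ charDegree_dvd_card (Z θ).2) dvd_rfl
      have h3 := hval θ hθ 1
      rw [← coe_deg (Z θ), h2, Nat.cast_one, one_mul] at h3
      exact h3
    · obtain ⟨θ, hθ, rfl⟩ := Finset.mem_image.1 hζ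
      obtain ⟨h1, h2⟩ := Finset.mem_filter.1 hθ
      have h3 := hval θ (hfin.mem_toFinset.1 h1) 1
      refine mul_right_cancel₀ h01 ?_
      rw [← h3, one_mul]
      exact h2

end H36.K63
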